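import Cfsg.Agent.Lib.Helper11.Y532c0.K0
import Cfsg.Agent.Lib.Helper11.Y532c0.K1
import Cfsg.Agent.Lib.Helper11.Y532c0.K2
import Cfsg.Agent.Lib.Helper11.Y532c0.K3
import Cfsg.Agent.Lib.Helper11.Y532c0.K4
import Cfsg.Agent.Lib.Helper11.Y532c0.K5

set_option autoImplicit false
set_option maxRecDepth 100000

namespace Cfsg.Agent.Lib.Helper11.Y532c0

theorem chkAll : ∀ j < 2130, blk fc sc rt.get INV isH j = true :=
  guardB_spec (D := 12) (allR_join (allR_join (allR_join (allR_join (allR_join b0 b1 (by norm_num)) (allR_join b2 b3 (by norm_num)) (by norm_num)) (allR_join (allR_join b4 b5 (by norm_num)) (allR_join b6 b7 (by norm_num)) (by norm_num)) (by norm_num)) (allR_join (allR_join (allR_join b8 b9 (by norm_num)) (allR_join b10 b11 (by norm_num)) (by norm_num)) (allR_join (allR_join b12 b13 (by norm_num)) (allR_join b14 b15 (by norm_num)) (by norm_num)) (by norm_num)) (by norm_num)) (allR_join (allR_join (allR_join (allR_join b16 b17 (by norm_num)) (allR_join b18 b19 (by norm_num)) (by norm_num)) (allR_join (allR_join b20 b21 (by norm_num)) (allR_join b22 b23 (by norm_num))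 (by norm_num)) (by norm_num)) (allR_join (allR_join (allR_join b24 b25 (by norm_num)) (allR_join b26 b27 (by norm_num)) (by norm_num)) (allR_join (allR_join b28 b29 (by norm_num)) (allR_join b30 b31 (by norm_num)) (by norm_num)) (by norm_num)) (by norm_num)) (by norm_num)) (by norm_num)

theorem clAll : ∀ jb < 990, cblk fc nc cc (256 * 2130) 31671 3121748550315992231381597229793166305748598142664971150859156959625371738819765620120306103063491971159826931121406622895447975679288285306290176 gens jb = true :=
  guardB_spec (D := 10) (allR_join (allR_join (allR_join (allR_join c0 c1 (by norm_num)) (allR_join c2 c3 (by norm_num)) (by norm_num)) (allR_join (allR_join c4 c5 (by norm_num)) (allR_join c6 c7 (by norm_num)) (by norm_num)) (by norm_num)) (allR_join (allR_join (allR_join c8 c9 (by norm_num)) (allR_join c10 c11 (by norm_num)) (by norm_num)) (allR_join (allR_join c12 c13 (by norm_num)) (allR_join c14 c15 (by norm_num)) (by norm_num)) (by norm_num)) (by norm_num)) (by norm_num)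

theorem hN0 : getN nc 0 = 0 := by decide +kernel


end Cfsg.Agent.Lib.Helper11.Y532c0
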